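import Cfsg.Agent.Lib.H04.Tf.AutB
import Cfsg.Agent.Lib.H04.Chev.Tab.B2_all3
import Cfsg.Agent.Lib.H04.Chev.Tab.B2_all2

/-! Generated tables of the exceptional graph map of type B2. -/

set_option autoImplicit false
set_option maxRecDepth 100000
set_option Elab.async false

open Cfsg.Lie Cfsg.Agent.H04.Chev
open Cfsg.Agent.H04.Chev.TB2

namespace Cfsg.Agent.H04.Tf.TB2

/-- the graph map -/
noncomputable def X : XT := ⟨NT.nd (NT.nd (NT.nd (NT.nd (NT.lf 0x1) (NT.lf 0x9)) (NT.nd (NT.lf 0x5) (NT.lf 0x0))) (NT.nd (NT.nd (NT.lf 0x3) (NT.lf 0x0)) (NT.nd (NT.lf 0x7) (NT.lf 0x0)))) (NT.nd (NT.nd (NT.nd (NT.lf 0x0) (NT.lf 0x8)) (NT.nd (NT.lf 0x4) (NT.lf 0x0))) (NT.nd (NT.nd (NT.lf 0x2) (NT.lf 0x0)) (NT.nd (NT.lf 0x6) (NT.lf 0x0)))), NT.nd (NT.nd (NT.nd (NT.nd (NT.lf 0x1) (NT.lf 0x1)) (NT.nd (NT.lf 0x1) (NT.lf 0x0))) (NT.nd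 (NT.nd (NT.lf 0x2) (NT.lf 0x0)) (NT.nd (NT.lf 0x2) (NT.lf 0x0)))) (NT.nd (NT.nd (NT.nd (NT.lf 0x2) (NT.lf 0x1)) (NT.nd (NT.lf 0x2) (NT.lf 0x0))) (NT.nd (NT.nd (NT.lf 0x1) (NT.lf 0x0)) (NT.nd (NT.lf 0x1) (NT.lf 0x0)))), NT.nd (NT.nd (NT.nd (NT.nd (NT.lf 0x0) (NT.lf 0x1)) (NT.nd (NT.lf 0x0) (NT.lf 0x0))) (NT.nd (NT.nd (NT.lf 0x1) (NT.lf 0x0)) (NT.nd (NT.lf 0x1) (NT.lf 0x0)))) (NT.nd (NT.nd (NT.nd (NT.lf 0x1) (NT.lf 0x0)) (NT.nd (NT.lf 0x1) (NT.lf 0x0))) (NT.nd (NT.nd (NT.lf 0x0) (NT.lf 0x0)) (NT.nd (NT.lf 0x0) (NT.lf 0x0))))⟩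

theorem xr0 : segAll 0 8 (xRow chevB2 T X) = true := by decide +kernel

theorem xOK : XOK chevB2 T X 6 7 := by
  refine XOK_of ?_ (by decide +kernel) (by decide +kernel) (by decide +kernel) (by decide +kernel) (by decide +kernel) (by decide +kernel) (by decide +kernel) (by decide +kernel) (by decide +kernel) (by decide +kernel)
  intro r hr
  have hn : chevB2.nroots = 8 := rfl
  rw [hn] at hr
  have hc : (0 ≤ r ∧ r < 0 + 8) := by omega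
  rcases hc with ⟨h1, h2⟩
  · exact segAll_spec xr0 r h1 h2

end Cfsg.Agent.H04.Tf.TB2
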